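/-
Primes dividing `|G|` exactly once and pairwise non-adjacent in the prime graph divide the order
of one non-abelian simple chief factor.
-/
import Mathlib
import Cfsg.Agent.Lib.Nse.Trace
import Cfsg.Agent.Lib.Core.MinNormal
import Cfsg.Agent.Lib.Core.Cores

set_option autoImplicit false

namespace CfsgLib.Nse

open Subgroup Cfsg
open scoped IsMulCommutative

/-- an element of order `p` normalising a subgroup of order `q`, `p ∤ q - 1`, gives order `p q` -/
theorem s_ne_zero_of_normalizer {G : Type*} [Group G] [Finite G] {p q : ℕ} (hp : p.Prime)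
    (hq : q.Prime) (hne : p ≠ q) (hd : ¬ p ∣ q - 1) (Q : Subgroup G) (hQ : Nat.card Q = q)
    (h : p ∣ Nat.card (normalizer (Q : Set G))) : s G (p * q) ≠ 0 := by
  haveI := Fact.mk hp
  haveI := Fact.mk hq
  obtain ⟨y, hy⟩ := exists_prime_orderOf_dvd_card' p h
  haveI := isCyclic_of_prime_card hQ
  have h1 : Q.normalizerMonoidHom y = 1 := by
    refine orderOf_eq_one_iff.mp (Nat.eq_one_of_dvd_coprimes
      ((Nat.Prime.coprime_iff_not_dvd hp).mpr hd) (hy ▸ orderOf_map_dvd _ y) ?_)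
    have := orderOf_dvd_natCard (Q.normalizerMonoidHom y)
    rwa [IsCyclic.card_mulAut, hQ, Nat.totient_prime hq] at this
  have h2 : y ∈ Q.normalizerMonoidHom.ker := h1
  rw [normalizerMonoidHom_ker, mem_subgroupOf] at h2
  obtain ⟨x, hx⟩ := exists_prime_orderOf_dvd_card' (G := Q) q (hQ ▸ dvd_rfl)
  have hc : Commute (y : G) x := (h2 x x.2).symm
  refine s_ne_zero_iff.mpr ⟨y * x, ?_⟩
  rw [hc.orderOf_mul_eq_mul_orderOf_of_coprime, orderOf_coe, orderOf_coe, hy, hx]
  rw [orderOf_coe, orderOf_coe, hy, hx]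
  exact (Nat.coprime_primes hp hq).mpr hne

theorem s_ne_zero_of_frattini {G : Type*} [Group G] [Finite G] {p q : ℕ} (hp : p.Prime)
    (hq : q.Prime) (hne : p ≠ q) (hd : ¬ p ∣ q - 1) (K : Subgroup G) [K.Normal]
    (h1 : q ∣ Nat.card K) (h2 : ¬ q ^ 2 ∣ Nat.card G) (h3 : p ∣ K.index) : s G (p * q) ≠ 0 := by
  haveI := Fact.mk hq
  obtain ⟨S⟩ := (inferInstance : Nonempty (Sylow q K))
  refine s_ne_zero_of_normalizer hp hq hne hd ((S : Subgroup K).map K.subtype) ?_ (h3.trans ?_)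
  · rw [card_map_of_injective K.subtype_injective]
    obtain ⟨k, hk⟩ := IsPGroup.iff_card.mp S.isPGroup'
    have h4 : q ∣ Nat.card (S : Subgroup K) := S.dvd_card_of_dvd_card h1
    have h5 : k < 2 := by
      by_contra h5
      exact h2 ((pow_dvd_pow q (by omega)).trans ((hk ▸ (S : Subgroup K).card_subgroup_dvd_card :
        q ^ k ∣ Nat.card K).trans K.card_subgroup_dvd_card))
    rw [hk] at h4 ⊢
    interval_cases k
    · exact absurd (Nat.dvd_one.mp (by simpa using h4)) hq.one_lt.ne'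
    · simp
  · rw [← relIndex_top_right, ← S.normalizer_sup_eq_top, relIndex_sup_right]
    exact relIndex_dvd_card _ _

theorem s_ne_zero_of_surjective {G H : Type*} [Group G] [Finite G] [Group H] [Finite H]
    (f : G →* H) (hf : Function.Surjective f) {m : ℕ} (h : s H m ≠ 0) : s G m ≠ 0 := by
  obtain ⟨y, hy⟩ := s_ne_zero_iff.mp h
  obtain ⟨x, rfl⟩ := hf y
  exact s_ne_zero_of_dvd (s_ne_zero_iff.mpr ⟨x, rfl⟩) (hy ▸ orderOf_map_dvd f x)

theorem simple_of_minimal {G : Type*} [Group G] [Finite G] {p : ℕ} (hp : p.Prime)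
    (hO : pPrimeCore p G = ⊥) (h2 : ¬ p ^ 2 ∣ Nat.card G) (M : Subgroup G) [M.Normal] (hM : M ≠ ⊥)
    (hmin : ∀ L : Subgroup G, L.Normal → L ≤ M → L = ⊥ ∨ L = M) : IsSimpleGroup M := by
  haveI : Nontrivial M := (nontrivial_iff_ne_bot M).mpr hM
  refine ⟨fun K hK => ?_⟩
  by_cases h : p ∣ Nat.card K
  · right
    have h3 : ¬ p ∣ K.index := fun h3 => h2 (Dvd.dvd.trans (by
      rw [← K.card_mul_index, pow_two]; exact mul_dvd_mul h h3) M.card_subgroup_dvd_card)
    have h4 := (hmin _ (Core.omegaOne_normal p M) (Core.omegaOne_le p M)).resolve_left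
      (Core.omegaOne_ne_bot_of_dvd_card hp (h.trans K.card_subgroup_dvd_card))
    have h5 : omegaOne p M ≤ K.map M.subtype := Core.omegaOne_le_iff.mpr fun x hx hxp => by
      refine ⟨⟨x, hx⟩, ?_, rfl⟩
      have h6 : (QuotientGroup.mk (⟨x, hx⟩ : M) : M ⧸ K) = 1 := by
        refine orderOf_eq_one_iff.mp (Nat.eq_one_of_dvd_coprimes
          ((Nat.Prime.coprime_iff_not_dvd hp).mpr h3) (orderOf_dvd_of_pow_eq_one ?_)
          (orderOf_dvd_natCard _))
        rw [← QuotientGroup.mk_pow, show (⟨x, hx⟩ : M) ^ p = 1 from Subtype.ext hxp]; rfl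
      exact (QuotientGroup.eq_one_iff _).mp h6
    rw [h4] at h5
    rw [eq_top_iff]
    intro x _
    obtain ⟨y, hy, e⟩ := h5 x.2
    exact (Subtype.ext e : y = x) ▸ hy
  · left
    have h3 : K ≤ pPrimeCore p M :=
      Core.le_pPrimeCore ((Nat.Prime.coprime_iff_not_dvd hp).mpr h).symm
    have h4 := (map_mono (f := M.subtype) h3).trans (Core.map_pPrimeCore_le_of_normal M)
    rw [hO, le_bot_iff] at h4
    exact (map_eq_bot_iff_of_injective _ M.subtype_injective).mp h4

theorem quot_comap_equiv {G : Type*} [Group G] (N : Subgroup G) [N.Normal] (M : Subgroup (G ⧸ N)) :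
    Nonempty (M.comap (QuotientGroup.mk' N) ⧸ N.subgroupOf (M.comap (QuotientGroup.mk' N)) ≃* M) := by
  have hs := (QuotientGroup.mk' N).subgroupComap_surjective_of_surjective M
    (QuotientGroup.mk'_surjective N)
  refine ⟨(QuotientGroup.quotientMulEquivOfEq ?_).trans
    (QuotientGroup.quotientKerEquivOfSurjective _ hs)⟩
  ext x
  rw [mem_subgroupOf, MonoidHom.mem_ker, Subtype.ext_iff]
  exact (QuotientGroup.eq_one_iff _).symm

theorem exists_section {G : Type*} [Group G] [Finite G] (π : Set ℕ)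
    (h1 : ∀ p ∈ π, p.Prime ∧ p ∣ Nat.card G ∧ ¬ p ^ 2 ∣ Nat.card G)
    (h2 : ∀ p ∈ π, ∀ q ∈ π, p ≠ q → ¬ p ∣ q - 1 ∧ s G (p * q) = 0) {p q : ℕ} (hp : p ∈ π)
    (hq : q ∈ π) (hne : p ≠ q) :
    ∃ (N H : Subgroup G) (_ : N.Normal), H.Normal ∧ N < H ∧
      IsSimpleGroup (H ⧸ N.subgroupOf H) ∧ ¬ IsMulCommutative (H ⧸ N.subgroupOf H) ∧
      ∀ r ∈ π, r ∣ Nat.card (H ⧸ N.subgroupOf H) := by
  obtain ⟨hpp, hpd, hp2⟩ := h1 p hp
  let N := pPrimeCore p G
  haveI := Core.pPrimeCore_characteristic p G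
  haveI hN : N.Normal := inferInstance
  have hO : pPrimeCore p (G ⧸ N) = ⊥ := Core.pPrimeCore_quotient_pPrimeCore p G
  have hpi : p ∣ N.index := by
    rw [← N.card_mul_index] at hpd
    exact ((Nat.Prime.dvd_mul hpp).mp hpd).resolve_left (Core.not_dvd_card_pPrimeCore hpp G)
  haveI : Nontrivial (G ⧸ N) := Finite.one_lt_card_iff_nontrivial.mp
    (hpp.one_lt.trans_le (Nat.le_of_dvd Nat.card_pos hpi))
  obtain ⟨M, hMn, hM0, -, hmin⟩ := Core.exists_minimal_normal_le (K := (⊤ : Subgroup (G ⧸ N)))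
    top_ne_bot
  have hp2' : ¬ p ^ 2 ∣ Nat.card (G ⧸ N) := fun h => hp2 (h.trans N.index_dvd_card)
  have hs := simple_of_minimal hpp hO hp2' M hM0 hmin
  have hpM : p ∣ Nat.card M := by
    by_contra h
    have := Core.le_pPrimeCore (N := M) ((Nat.Prime.coprime_iff_not_dvd hpp).mpr h).symm
    rw [hO, le_bot_iff] at this
    exact hM0 this
  have hall : ∀ r ∈ π, r ∣ Nat.card M := by
    intro r hr
    by_cases e : r = p
    · exact e ▸ hpM
    obtain ⟨hrp, hrd, hr2⟩ := h1 r hr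
    rw [← N.card_mul_index] at hrd
    rcases (Nat.Prime.dvd_mul hrp).mp hrd with h | h
    · exact absurd (h2 p hp r hr (Ne.symm e)).2 (s_ne_zero_of_frattini hpp hrp (Ne.symm e)
        (h2 p hp r hr (Ne.symm e)).1 N h hr2 hpi)
    · rw [show N.index = Nat.card M * M.index from M.card_mul_index.symm] at h
      refine ((Nat.Prime.dvd_mul hrp).mp h).resolve_right fun h => ?_
      exact s_ne_zero_of_surjective _ (QuotientGroup.mk'_surjective N)
        (s_ne_zero_of_frattini hrp hpp e (h2 r hr p hp e).1 M hpM hp2' h) (h2 r hr p hp e).2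
  obtain ⟨e⟩ := quot_comap_equiv N M
  refine ⟨N, M.comap (QuotientGroup.mk' N), hN, hMn.comap _, ?_, e.isSimpleGroup, fun hc => ?_,
    fun r hr => ?_⟩
  · refine lt_of_le_of_ne (fun x hx => ?_) fun h => hM0 ?_
    · rw [mem_comap, QuotientGroup.mk'_apply, (QuotientGroup.eq_one_iff x).mpr hx]
      exact M.one_mem
    · rw [← map_comap_eq_self_of_surjective (QuotientGroup.mk'_surjective N) M, ← h,
        Subgroup.map_eq_bot_iff, QuotientGroup.ker_mk']
  · haveI := e.isSimpleGroup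
    have h3 := IsSimpleGroup.prime_card
      (α := M.comap (QuotientGroup.mk' N) ⧸ N.subgroupOf (M.comap (QuotientGroup.mk' N)))
    rw [Nat.card_congr e.toEquiv] at h3
    exact hne (((Nat.prime_dvd_prime_iff_eq hpp h3).mp hpM).trans
      ((Nat.prime_dvd_prime_iff_eq (h1 q hq).1 h3).mp (hall q hq)).symm)
  · rw [Nat.card_congr e.toEquiv]; exact hall r hr

theorem exists_dvd_of_dvd_lcm {p : ℕ} (hp : p.Prime) (m : Multiset ℕ) (h : p ∣ m.lcm) :
    ∃ a ∈ m, p ∣ a := by
  induction m using Multiset.induction_on with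
  | empty => exact absurd (Nat.dvd_one.mp (by simpa using h)) hp.one_lt.ne'
  | cons a m ih =>
    rw [Multiset.lcm_cons] at h
    rcases (Nat.Prime.dvd_mul hp).mp (h.trans (lcm_dvd_mul a m.lcm)) with h | h
    · exact ⟨a, Multiset.mem_cons_self _ _, h⟩
    · obtain ⟨b, hb, h⟩ := ih h
      exact ⟨b, Multiset.mem_cons_of_mem hb, h⟩

theorem add_le_of_orderOf {α : Type*} [Fintype α] [DecidableEq α] {p q : ℕ} (hp : p.Prime)
    (hq : q.Prime) (hne : p ≠ q) (σ : Equiv.Perm α) (h : orderOf σ = p * q) :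
    p + q ≤ Fintype.card α := by
  rw [← Equiv.Perm.lcm_cycleType] at h
  obtain ⟨a, ha, h1⟩ := exists_dvd_of_dvd_lcm hp σ.cycleType (h ▸ Dvd.intro _ rfl)
  obtain ⟨b, hb, h2⟩ := exists_dvd_of_dvd_lcm hq σ.cycleType (h ▸ Dvd.intro_left _ rfl)
  have h3 := σ.sum_cycleType_le
  have ha2 := Equiv.Perm.two_le_of_mem_cycleType ha
  have hb2 := Equiv.Perm.two_le_of_mem_cycleType hb
  by_cases e : a = b
  · subst e
    have h4 := Nat.le_of_dvd (by omega)
      (((Nat.coprime_primes hp hq).mpr hne).mul_dvd_of_dvd_of_dvd h1 h2)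
    have h5 := Multiset.single_le_sum (fun _ _ => Nat.zero_le _) a ha
    have := hp.two_le
    have := hq.two_le
    nlinarith
  · obtain ⟨m, hm⟩ := Multiset.exists_cons_of_mem ha
    rw [hm] at hb h3
    have h4 := (Multiset.mem_cons.mp hb).resolve_left (Ne.symm e)
    have h5 := Multiset.single_le_sum (fun _ _ => Nat.zero_le _) b h4
    rw [Multiset.sum_cons] at h3
    have := Nat.le_of_dvd (by omega) h1
    have := Nat.le_of_dvd (by omega) h2
    omega

theorem not_sq_dvd_factorial {p : ℕ} (hp : p.Prime) (n : ℕ) (h : n < 2 * p) :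
    ¬ p ^ 2 ∣ n.factorial := by
  induction n with
  | zero =>
    intro h
    exact hp.one_lt.ne' (Nat.dvd_one.mp ((dvd_pow_self p two_ne_zero).trans h))
  | succ n ih =>
    rw [Nat.factorial_succ]
    intro h1
    by_cases h2 : p ∣ n + 1
    · obtain ⟨k, hk⟩ := h2
      have : k = 1 := by
        rcases k with _ | _ | k
        · omega
        · rfl
        · nlinarith
      subst this
      rw [hk, mul_one, pow_two] at h1
      have := (hp.dvd_factorial).mp (Nat.dvd_of_mul_dvd_mul_left hp.pos h1)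
      omega
    · exact ih (by omega) ((((Nat.Prime.coprime_iff_not_dvd hp).mpr h2).pow_left 2).dvd_of_dvd_mul_left h1)

/-- the section for a group with the order and the spectrum of `A_n` -/
theorem alt_section {G : Type*} [Group G] [Finite G] (n : ℕ)
    (hcard : Nat.card G = Nat.card (alternatingGroup (Fin n)))
    (hspec : Set.range (orderOf : G → ℕ) = Set.range (orderOf : alternatingGroup (Fin n) → ℕ))
    {p q : ℕ} (hp : p.Prime) (hq : q.Prime) (hne : p ≠ q) (h1 : n < 2 * p) (h2 : n < 2 * q)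
    (h3 : p ≤ n) (h4 : q ≤ n) (hn : 4 ≤ n) :
    ∃ (N H : Subgroup G) (_ : N.Normal), H.Normal ∧ N < H ∧
      IsSimpleGroup (H ⧸ N.subgroupOf H) ∧ ¬ IsMulCommutative (H ⧸ N.subgroupOf H) ∧
      ∀ p : ℕ, p.Prime → n < 2 * p → p ≤ n → p ∣ Nat.card (H ⧸ N.subgroupOf H) := by
  haveI : Nontrivial (Fin n) := Fin.nontrivial_iff_two_le.mpr (by omega)
  have hc : 2 * Nat.card G = n.factorial := by
    rw [hcard, two_mul_nat_card_alternatingGroup, Nat.card_perm]; simp
  refine (exists_section (G := G) {r | r.Prime ∧ n < 2 * r ∧ r ≤ n} ?_ ?_ (p := p) (q := q)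
    ⟨hp, h1, h3⟩ ⟨hq, h2, h4⟩ hne).elim fun N ⟨H, a1, a2, a3, a4, a5, a6⟩ =>
      ⟨N, H, a1, a2, a3, a4, a5, fun r b1 b2 b3 => a6 r ⟨b1, b2, b3⟩⟩
  · rintro r ⟨b1, b2, b3⟩
    refine ⟨b1, ?_, fun h => not_sq_dvd_factorial b1 n b2 (hc ▸ h.mul_left 2)⟩
    have := (b1.dvd_factorial).mpr b3
    rw [← hc] at this
    refine ((Nat.Prime.dvd_mul b1).mp this).resolve_left fun h => ?_
    have := Nat.le_of_dvd two_pos h
    omega
  · rintro r ⟨b1, b2, b3⟩ t ⟨c1, c2, c3⟩ hrt
    refine ⟨fun h => ?_, s_eq_zero_iff.mpr fun g hg => ?_⟩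
    · obtain ⟨k, hk⟩ := h
      have := c1.two_le
      have hk1 : k = 1 := by
        rcases k with _ | _ | k
        · omega
        · rfl
        · have : r * (k + 1 + 1) = 2 * r + r * k := by ring
          omega
      subst hk1
      have d1 := b1.eq_two_or_odd
      have d2 := c1.eq_two_or_odd
      omega
    · obtain ⟨σ, hσ⟩ : r * t ∈ Set.range (orderOf : alternatingGroup (Fin n) → ℕ) :=
        hspec ▸ ⟨g, hg⟩
      have := add_le_of_orderOf b1 c1 hrt (σ : Equiv.Perm (Fin n)) (by rw [orderOf_coe, hσ])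
      rw [Fintype.card_fin] at this
      omega

end CfsgLib.Nse
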